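import Mathlib
import Cfsg.Agent.LieClassical.QuadForms
import Cfsg.Agent.S0762
import Cfsg.Agent.H805.MSpU
import Cfsg.Agent.Fischer891.FinalO
import Cfsg.Agent.S1629
import Cfsg.Agent.S1630
import Cfsg.Agent.H805.MTwentyFour
import Cfsg.Agent.Fischer480.AllPieces
set_option linter.all false

-- part: H805/QTwo
section
set_option autoImplicit false

/-!
# Non degenerate quadratic forms over the field with two elements, even dimension
-/

namespace Cfsg.Agent.H805.QTwo

open Cfsg QuadraticMap Module
open Cfsg.Agent.LieClassical.QuadForms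

universe u

local notation "F₂" => ZMod 2

theorem z_cases (a : F₂) : a = 0 ∨ a = 1 := by
  revert a; decide

theorem z_ne {a : F₂} (h : a ≠ 0) : a = 1 := by
  rcases z_cases a with h1 | h1
  · exact absurd h1 h
  · exact h1

theorem z_add (a : F₂) : a + a = 0 := by
  revert a; decide

section

variable {V : Type u} [AddCommGroup V] [Module F₂ V]

theorem v_add (v : V) : v + v = 0 := by
  have h : (2 : F₂) = 0 := by decide
  have := two_smul F₂ v
  rw [h, zero_smul] at this
  exact this.symm

variable {Q : QuadraticForm F₂ V}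

theorem p_self (v : V) : polar Q v v = 0 := by
  rw [QuadraticMap.polar_self, two_smul]
  exact z_add _

theorem q_add (v w : V) : Q (v + w) = Q v + Q w + polar Q v w := by
  rw [QuadraticMap.map_add (⇑Q)]

/-- The subspace orthogonal to two vectors. -/
def perp2 (Q : QuadraticForm F₂ V) (v w : V) : Submodule F₂ V :=
  LinearMap.ker (polarBilin Q v) ⊓ LinearMap.ker (polarBilin Q w)

theorem mem_perp2 {v w x : V} : x ∈ perp2 Q v w ↔ polar Q v x = 0 ∧ polar Q w x = 0 := Iff.rfl

/-- The decomposition belonging to a pair of vectors with polar value 1. -/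
noncomputable def split {v w : V} (h : polar Q v w = 1) :
    (perp2 Q v w × F₂ × F₂) ≃ₗ[F₂] V where
  toFun p := (p.1 : V) + p.2.1 • v + p.2.2 • w
  invFun x := (⟨x + polar Q w x • v + polar Q v x • w, by
    rw [mem_perp2]
    constructor
    · rw [polar_add_right, polar_add_right, polar_smul_right, polar_smul_right, p_self, h]
      simp only [smul_eq_mul, mul_zero, mul_one, add_zero]
      exact z_add _
    · rw [polar_add_right, polar_add_right, polar_smul_right, polar_smul_right, p_self,
        polar_comm _ w v, h]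
      simp only [smul_eq_mul, mul_zero, mul_one, add_zero]
      exact z_add _⟩, polar Q w x, polar Q v x)
  map_add' p q := by
    simp only [Prod.fst_add, Prod.snd_add, Submodule.coe_add, add_smul]
    abel
  map_smul' c p := by
    simp only [Prod.smul_fst, Prod.smul_snd, Submodule.coe_smul, smul_eq_mul, mul_smul,
      RingHom.id_apply, smul_add]
  left_inv p := by
    obtain ⟨⟨u, hu⟩, a, b⟩ := p
    obtain ⟨hu1, hu2⟩ := mem_perp2.1 hu
    have h1 : polar Q w (u + a • v + b • w) = a := by
      rw [polar_add_right, polar_add_right, polar_smul_right, polar_smul_right, p_self,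
        polar_comm _ w v, h, hu2]
      simp
    have h2 : polar Q v (u + a • v + b • w) = b := by
      rw [polar_add_right, polar_add_right, polar_smul_right, polar_smul_right, p_self, h, hu1]
      simp
    refine Prod.ext (Subtype.ext ?_) (Prod.ext ?_ ?_)
    · show u + a • v + b • w + polar Q w (u + a • v + b • w) • v
        + polar Q v (u + a • v + b • w) • w = u
      rw [h1, h2]
      have h3 := v_add (a • v)
      have h4 := v_add (b • w)
      calc u + a • v + b • w + a • v + b • w
          = u + (a • v + a • v) + (b • w + b • w) := by abel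
        _ = u := by rw [h3, h4, add_zero, add_zero]
    · exact h1
    · exact h2
  right_inv x := by
    show x + polar Q w x • v + polar Q v x • w + polar Q w x • v + polar Q v x • w = x
    have h3 := v_add (polar Q w x • v)
    have h4 := v_add (polar Q v x • w)
    calc x + polar Q w x • v + polar Q v x • w + polar Q w x • v + polar Q v x • w
        = x + (polar Q w x • v + polar Q w x • v)
          + (polar Q v x • w + polar Q v x • w) := by abel
      _ = x := by rw [h3, h4, add_zero, add_zero]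

theorem split_apply {v w : V} (h : polar Q v w = 1) (u : perp2 Q v w) (a b : F₂) :
    split h (u, a, b) = (u : V) + a • v + b • w := rfl

theorem q_split {v w : V} (h : polar Q v w = 1) (hv : Q v = 0) (hw : Q w = 0)
    (u : perp2 Q v w) (a b : F₂) : Q (split h (u, a, b)) = Q u + a * b := by
  obtain ⟨hu1, hu2⟩ := mem_perp2.1 u.2
  rw [split_apply, q_add, q_add, QuadraticMap.map_smul, QuadraticMap.map_smul, hv, hw, polar_add_left, polar_smul_right,
    polar_smul_right, polar_smul_right, polar_smul_left, polar_comm _ (u : V) v,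
    polar_comm _ (u : V) w, hu1, hu2, h]
  simp [mul_comm]

/-- the form on the orthogonal subspace -/
noncomputable def res (Q : QuadraticForm F₂ V) (v w : V) : QuadraticForm F₂ (perp2 Q v w) :=
  Q.comp (perp2 Q v w).subtype

theorem res_apply (v w : V) (u : perp2 Q v w) : res Q v w u = Q u := rfl

theorem polar_res (v w : V) (x y : perp2 Q v w) : polar (res Q v w) x y = polar Q x y := rfl

theorem res_nondeg (hQ : ∀ x, (∀ y, polar Q x y = 0) → x = 0) {v w : V}
    (h : polar Q v w = 1) : ∀ x, (∀ y, polar (res Q v w) x y = 0) → x = 0 := by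
  intro x hx
  apply Subtype.ext
  apply hQ
  intro y
  obtain ⟨⟨u, a, b⟩, rfl⟩ := (split h).surjective y
  obtain ⟨hx1, hx2⟩ := mem_perp2.1 x.2
  have h1 := hx u
  rw [polar_res] at h1
  rw [split_apply, polar_add_right, polar_add_right, polar_smul_right, polar_smul_right,
    polar_comm _ (x : V) v, polar_comm _ (x : V) w, hx1, hx2, h1]
  simp

theorem finrank_perp2 [FiniteDimensional F₂ V] {v w : V} (h : polar Q v w = 1) :
    finrank F₂ V = finrank F₂ (perp2 Q v w) + 2 := by
  rw [← LinearEquiv.finrank_eq (split h), finrank_prod, finrank_prod, finrank_self]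

end

/-- **Classification of the non degenerate forms.** -/
theorem classify (n : ℕ) : ∀ {V : Type u} [AddCommGroup V] [Module F₂ V] [FiniteDimensional F₂ V]
    (Q : QuadraticForm F₂ V), (∀ x, (∀ y, polar Q x y = 0) → x = 0) → finrank F₂ V = 2 * n →
    (∃ e : (Fin n ⊕ Fin n → F₂) ≃ₗ[F₂] V, ∀ x, Q (e x) = plusForm n F₂ x) ∨
      (∃ m, n = m + 1 ∧ ∃ e : ((Fin m ⊕ Fin m) ⊕ Fin 2 → F₂) ≃ₗ[F₂] V,
        ∀ x, Q (e x) = minusForm m F₂ 1 1 x) := by
  induction n with
  | zero =>
    intro V _ _ _ Q hQ hd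
    left
    haveI : Subsingleton V := finrank_zero_iff.1 (by omega)
    refine ⟨{ (0 : (Fin 0 ⊕ Fin 0 → F₂) →ₗ[F₂] V) with
      invFun := fun _ => 0
      left_inv := fun x => Subsingleton.elim _ _
      right_inv := fun x => Subsingleton.elim _ _ }, fun x => ?_⟩
    rw [plusForm_apply]
    simp only [Finset.univ_eq_empty, Finset.sum_empty]
    have : ∀ y : V, Q y = 0 := by
      intro y
      rw [Subsingleton.elim y 0, map_zero]
    exact this _
  | succ n ih =>
    intro V _ _ _ Q hQ hd
    have hpair : ∀ v : V, v ≠ 0 → ∃ w, polar Q v w = 1 := by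
      intro v hv
      by_contra hcon
      push Not at hcon
      apply hv
      apply hQ
      intro y
      by_contra h
      exact hcon y (z_ne h)
    by_cases hex : ∃ v : V, v ≠ 0 ∧ Q v = 0
    · obtain ⟨v, hv, hqv⟩ := hex
      obtain ⟨w₀, hw₀⟩ := hpair v hv
      obtain ⟨w, hw, hqw⟩ : ∃ w, polar Q v w = 1 ∧ Q w = 0 := by
        refine ⟨w₀ + Q w₀ • v, ?_, ?_⟩
        · rw [polar_add_right, polar_smul_right, p_self, hw₀]; simp
        · rw [q_add, QuadraticMap.map_smul, hqv, polar_smul_right, polar_comm _ w₀ v, hw₀]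
          simp only [smul_eq_mul, mul_zero, mul_one, add_zero]
          exact z_add _
      have hfin := finrank_perp2 hw
      rcases ih (res Q v w) (res_nondeg hQ hw) (by omega) with ⟨e, he⟩ | ⟨m, hm, e, he⟩
      · left
        refine ⟨((plusStep n F₂).symm.trans
          (e.prodCongr (LinearEquiv.refl F₂ (F₂ × F₂)))).trans (split hw), fun x => ?_⟩
        obtain ⟨⟨y, a, b⟩, rfl⟩ := (plusStep n F₂).surjective x
        rw [plusForm_plusStep, ← he]
        rw [LinearEquiv.trans_apply, LinearEquiv.trans_apply, LinearEquiv.symm_apply_apply]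
        exact q_split hw hqv hqw (e y) a b
      · right
        refine ⟨m + 1, by omega, ((minusStep m F₂).symm.trans
          (e.prodCongr (LinearEquiv.refl F₂ (F₂ × F₂)))).trans (split hw), fun x => ?_⟩
        obtain ⟨⟨y, a, b⟩, rfl⟩ := (minusStep m F₂).surjective x
        rw [minusForm_minusStep, ← he]
        rw [LinearEquiv.trans_apply, LinearEquiv.trans_apply, LinearEquiv.symm_apply_apply]
        exact q_split hw hqv hqw (e y) a b
    · push Not at hex
      right
      have hn : n = 0 := by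
        by_contra hn
        haveI : Fact (Nat.Prime 2) := ⟨Nat.prime_two⟩
        obtain ⟨v, hv, hqv⟩ := Cfsg.Agent.S0762.result Q (by omega)
        exact hex v hv hqv
      subst hn
      refine ⟨0, rfl, ?_⟩
      haveI : Nontrivial V := Module.nontrivial_of_finrank_pos (R := F₂) (by omega)
      obtain ⟨v, hv⟩ := exists_ne (0 : V)
      obtain ⟨w, hw⟩ := hpair v hv
      have hqv : Q v = 1 := z_ne (hex v hv)
      have hqw : Q w = 1 := by
        apply z_ne
        apply hex
        rintro rfl
        rw [polar_zero_right] at hw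
        exact zero_ne_one hw
      let L : ((Fin 0 ⊕ Fin 0) ⊕ Fin 2 → F₂) →ₗ[F₂] V :=
        (LinearMap.proj (Sum.inr 0)).smulRight v + (LinearMap.proj (Sum.inr 1)).smulRight w
      have hL : ∀ x, L x = x (.inr 0) • v + x (.inr 1) • w := fun x => rfl
      have hQL : ∀ x, Q (L x) = minusForm 0 F₂ 1 1 x := by
        intro x
        rw [hL, q_add, QuadraticMap.map_smul, QuadraticMap.map_smul, hqv, hqw, polar_smul_left, polar_smul_right, hw,
          minusForm_apply, plusForm_apply, binForm_apply]
        simp only [smul_eq_mul, mul_one, Finset.univ_eq_empty, Finset.sum_empty, one_mul]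
        ring
      have hinj : Function.Injective L := by
        rw [← LinearMap.ker_eq_bot, LinearMap.ker_eq_bot']
        intro x hx
        have h1 : polar Q (L x) w = 0 := by rw [hx, polar_zero_left]
        have h2 : polar Q (L x) v = 0 := by rw [hx, polar_zero_left]
        rw [hL, polar_add_left, polar_smul_left, polar_smul_left, p_self, hw] at h1
        rw [hL, polar_add_left, polar_smul_left, polar_smul_left, p_self, polar_comm _ w v,
          hw] at h2
        funext i
        rcases i with i | i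
        · rcases i with i | i <;> exact i.elim0
        · fin_cases i
          · simpa using h1
          · simpa using h2
      have hfin : finrank F₂ ((Fin 0 ⊕ Fin 0) ⊕ Fin 2 → F₂) = finrank F₂ V := by
        rw [hd, Module.finrank_fintype_fun_eq_card]
        rfl
      exact ⟨LinearEquiv.ofInjectiveOfFinrankEq L hinj hfin, hQL⟩

end Cfsg.Agent.H805.QTwo
end

-- part: H805/MOrth
section
set_option autoImplicit false

/-!
# S5368: the orthogonal groups over the field with two elements
-/

namespace Cfsg.Agent.H805.MOrth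

open Cfsg Cfsg.Agent.SporadicStructure.FischerSpace Cfsg.Agent.Fischer480.Defs
open Cfsg.Agent.ThreeTransPolar.Basic Cfsg.Agent.SporadicStructure.OrthTransTwo
open Cfsg.Agent.Fischer891.OUp Cfsg.Agent.Fischer891.FinalO

open scoped Matrix MatrixGroups

section

variable {ι : Type} [Fintype ι] [DecidableEq ι]
  {Q : (ι → ZMod 2) → ZMod 2} {B : (ι → ZMod 2) → (ι → ZMod 2) → ZMod 2}

theorem tau_injective (h : IsNdForm Q B) {v w : ι → ZMod 2} (hv : Q v = 1) (hw : Q w = 1)
    (e : tau h v hv = tau h w hw) : v = w := by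
  obtain ⟨y, hy⟩ := exists_B_eq_one h (ne_zero_of_Q h hv)
  have h1 : act (tau h v hv) y = act (tau h w hw) y := by rw [e]
  rw [act_tau, act_tau, hy, one_smul] at h1
  have h2 := add_left_cancel h1
  rcases z_cases (B w y) with h3 | h3
  · rw [h3, zero_smul] at h2
    exact absurd h2 (ne_zero_of_Q h hv)
  · rw [h3, one_smul] at h2
    exact h2

theorem center_eq_bot (h : IsNdForm Q B) (hcard : 5 ≤ Fintype.card ι) :
    Subgroup.center (isometryGroup (ZMod 2) Q) = ⊥ := by
  rw [eq_bot_iff]
  intro g hg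
  rw [Subgroup.mem_center_iff] at hg
  rw [Subgroup.mem_bot]
  have key : ∀ w, Q w = 1 → act g w = w := by
    intro w hw
    have h1 := conj_tau h g w hw
    rw [← hg, mul_assoc, mul_inv_cancel, mul_one] at h1
    exact (tau_injective h hw _ h1).symm
  apply act_ext
  intro x
  rw [act_one]
  rcases z_cases (Q x) with hx | hx
  · obtain ⟨w, hw, -, hqw⟩ := exists_Q_eq_one h hcard x x
    have h1 := key (w + x) (by rw [h.hQ, hqw, hx, B_symm h, hw]; decide)
    rw [act_add, key w hqw] at h1
    exact add_left_cancel h1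
  · exact key x hx

end

section

variable {G : Type*} [Group G] {D : Set G} {n : ℕ}
  {Q : QuadraticForm (ZMod 2) (Fin (2 * n) → ZMod 2)} {f : G → Fin (2 * n) → ZMod 2}
variable {ι : Type} [Fintype ι] [DecidableEq ι]
  {Q' : (ι → ZMod 2) → ZMod 2} {B' : (ι → ZMod 2) → (ι → ZMod 2) → ZMod 2}

theorem f_cj (h : FData D) (C : OChart n D Q f) (hn : 3 ≤ n) : ∀ d ∈ D, ∀ y ∈ D,
    f (cj d y) = tv Q (f d) (f y) := by
  intro d hd y hy
  rw [tv_apply]
  by_cases hc : Commute d y
  · rw [cj_of_commute hc]
    have h1 : QuadraticMap.polar Q (f y) (f d) = 0 := (C.comm y hy d hd).1 hc.symm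
    rw [h1, zero_smul, add_zero]
  · rw [third_eq h C hn hd hy hc]
    have h1 : QuadraticMap.polar Q (f y) (f d) = 1 := by
      rcases z_cases (QuadraticMap.polar Q (f y) (f d)) with h2 | h2
      · exact absurd ((C.comm y hy d hd).2 h2).symm hc
      · exact h2
    rw [h1, one_smul, add_comm]

theorem exists_iso_form (h' : IsNdForm Q' B') (hcard : 5 ≤ Fintype.card ι)
    (hcls : IsThreeTranspositionClass {g : isometryGroup (ZMod 2) Q' |
      (((g : GL ι (ZMod 2)) : Matrix ι ι (ZMod 2)) - 1).rank = 1})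
    (h : FData D) (hz : Subgroup.center G = ⊥) (hn : 3 ≤ n) (C : OChart n D Q f)
    (e : (ι → ZMod 2) ≃ₗ[ZMod 2] (Fin (2 * n) → ZMod 2)) (he : ∀ x, Q (e x) = Q' x) :
    ∃ E : G ≃* isometryGroup (ZMod 2) Q', E '' D = {g : isometryGroup (ZMod 2) Q' |
      (((g : GL ι (ZMod 2)) : Matrix ι ι (ZMod 2)) - 1).rank = 1} := by
  have hB : ∀ x y, B' x y = QuadraticMap.polar Q (e x) (e y) := by
    intro x y
    rw [B_eq h', ← he, ← he, ← he, map_add]
    show _ = Q (e x + e y) - Q (e x) - Q (e y)
    generalize Q (e x + e y) = a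
    generalize Q (e x) = b
    generalize Q (e y) = c
    revert a b c
    decide
  have hq : ∀ x ∈ D, Q' (e.symm (f x)) = 1 := by
    intro x hx
    rw [← he, e.apply_symm_apply, C.one x hx]
  have h₂ : FData {g : isometryGroup (ZMod 2) Q' |
      (((g : GL ι (ZMod 2)) : Matrix ι ι (ZMod 2)) - 1).rank = 1} := fdata_of_class hcls
  let φ₀ : ↥D → ↥{g : isometryGroup (ZMod 2) Q' |
      (((g : GL ι (ZMod 2)) : Matrix ι ι (ZMod 2)) - 1).rank = 1} := fun x =>
    ⟨tau h' (e.symm (f x)) (hq x x.2), rank_tau h' _ _⟩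
  have hbij : Function.Bijective φ₀ := by
    constructor
    · intro x y hxy
      have h1 : tau h' (e.symm (f x)) (hq x x.2) = tau h' (e.symm (f y)) (hq y y.2) :=
        congrArg Subtype.val hxy
      have h2 := tau_injective h' _ _ h1
      exact Subtype.ext (C.inj x x.2 y y.2 (e.symm.injective h2))
    · rintro ⟨g, hg⟩
      obtain ⟨w, hw, rfl⟩ := eq_tau_of_rank h' g hg
      obtain ⟨x, hx, hfx⟩ := C.surj (e w) (by rw [he]; exact hw)
      refine ⟨⟨x, hx⟩, Subtype.ext ?_⟩
      exact tau_congr h' (hq x hx) hw (by rw [hfx, e.symm_apply_apply])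
  refine MSym.exists_iso h h₂ hz (center_eq_bot h' hcard) (Equiv.ofBijective φ₀ hbij) ?_
  intro a b
  show tau h' (e.symm (f (cj (a : G) b))) (hq _ (cj_mem h b.2)) =
    tau h' (e.symm (f a)) (hq a a.2) * tau h' (e.symm (f b)) (hq b b.2) *
      (tau h' (e.symm (f a)) (hq a a.2))⁻¹
  rw [conj_tau]
  apply tau_congr
  rw [act_tau, f_cj h C hn a a.2 b b.2, tv_apply, map_add, map_smul, hB, e.apply_symm_apply,
    e.apply_symm_apply, QuadraticMap.polar_comm]

theorem isNdForm_minus (m : ℕ) : ∃ B, IsNdForm (quadFormMinus m (ZMod 2) 1 1) B := by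
  refine ⟨fun x y => QuadraticMap.polar
    (Cfsg.Agent.LieClassical.QuadForms.minusForm m (ZMod 2) 1 1) x y, ?_, ?_, ?_⟩
  · intro x y
    rw [← Cfsg.Agent.LieClassical.QuadForms.coe_minusForm]
    exact QuadraticMap.map_add _ x y
  · intro x y z
    exact QuadraticMap.polar_add_left _ x y z
  · intro u h
    have h1 : (fun i => u (.inl i)) = (0 : Fin m ⊕ Fin m → ZMod 2) := by
      refine Cfsg.Agent.LieClassical.QuadForms.polar_plusForm_nondeg m _ fun w => ?_
      have := h (Sum.elim w 0)
      rw [Cfsg.Agent.LieClassical.QuadForms.polar_minusForm] at this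
      have h0 : (fun i : Fin 2 => (Sum.elim w 0 : (Fin m ⊕ Fin m) ⊕ Fin 2 → ZMod 2) (Sum.inr i)) = 0 := rfl
      rw [h0, QuadraticMap.polar_zero_right, add_zero] at this
      exact this
    have h2 : ∀ w : Fin 2 → ZMod 2, u (.inr 0) * w 1 + u (.inr 1) * w 0 = 0 := by
      intro w
      have := h (Sum.elim 0 w)
      rw [Cfsg.Agent.LieClassical.QuadForms.polar_minusForm] at this
      have h0 : (fun i : Fin m ⊕ Fin m => (Sum.elim 0 w : (Fin m ⊕ Fin m) ⊕ Fin 2 → ZMod 2) (Sum.inl i)) = 0 := rfl
      rw [h0, QuadraticMap.polar_zero_right, zero_add,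
        Cfsg.Agent.LieClassical.QuadForms.polar_binForm] at this
      have h2 : (2 : ZMod 2) = 0 := by decide
      simpa [h2] using this
    have h3 : u (.inr 0) = 0 := by simpa using h2 (Pi.single 1 1)
    have h4 : u (.inr 1) = 0 := by simpa using h2 (Pi.single 0 1)
    funext i
    rcases i with i | i
    · exact congrFun h1 i
    · fin_cases i
      · exact h3
      · exact h4

/-- **Type `O(2n)`.** -/
theorem exists_iso_orth (h : FData D) (hz : Subgroup.center G = ⊥) (hn : 3 ≤ n)
    (hO : IsO n D) :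
    (∃ m : ℕ, 3 ≤ m ∧ ∃ e : G ≃* ↥(Cfsg.isometryGroup (ZMod 2) (Cfsg.quadFormPlus m (ZMod 2))), e '' D = {g : ↥(Cfsg.isometryGroup (ZMod 2) (Cfsg.quadFormPlus m (ZMod 2))) | (((g : GL (Fin m ⊕ Fin m) (ZMod 2)) : Matrix (Fin m ⊕ Fin m) (Fin m ⊕ Fin m) (ZMod 2)) - 1).rank = 1}) ∨ (∃ m : ℕ, 2 ≤ m ∧ ∃ e : G ≃* ↥(Cfsg.isometryGroup (ZMod 2) (Cfsg.quadFormMinus m (ZMod 2) 1 1)), e '' D = {g : ↥(Cfsg.isometryGroup (ZMod 2) (Cfsg.quadFormMinus m (ZMod 2) 1 1)) | (((g : GL ((Fin m ⊕ Fin m) ⊕ Fin 2) (ZMod 2)) : Matrix ((Fin m ⊕ Fin m) ⊕ Fin 2) ((Fin m ⊕ Fin m) ⊕ Fin 2) (ZMod 2)) - 1).rank = 1}) := by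
  obtain ⟨Q, f, C⟩ := isO_iff.1 hO
  rcases QTwo.classify n Q C.nondeg (by rw [Module.finrank_fin_fun]) with ⟨e, he⟩ | ⟨m, hm, e, he⟩
  · left
    refine ⟨n, hn, exists_iso_form (Cfsg.Agent.S1629.isNdForm_plus n) ?_
      (Cfsg.Agent.S1629.result n hn) h hz hn C e ?_⟩
    · rw [Fintype.card_sum, Fintype.card_fin]; omega
    · intro x
      rw [he, Cfsg.Agent.LieClassical.QuadForms.coe_plusForm]
  · right
    obtain ⟨B, hB⟩ := isNdForm_minus m
    refine ⟨m, by omega, exists_iso_form hB ?_
      (Cfsg.Agent.S1630.result m (by omega)) h hz hn C e ?_⟩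
    · simp only [Fintype.card_sum, Fintype.card_fin]; omega
    · intro x
      rw [he, Cfsg.Agent.LieClassical.QuadForms.coe_minusForm]

end

end Cfsg.Agent.H805.MOrth
end

-- part: H805/Main
section
set_option autoImplicit false

/-!
# S5368: the models of the classes in the list
-/

namespace Cfsg.Agent.H805.Main

open Cfsg Cfsg.Agent.SporadicStructure.FischerSpace
open Cfsg.Agent.ThreeTransPolar.Basic
open Cfsg.Agent.Fischer480.Defs
open Cfsg.Agent.Fischer919.OmegaR
open Cfsg.Agent.Fischer3.Orth3Basic (Form)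
open Cfsg.Agent.H805.MTypes (center_of_sol)

variable {G : Type*} [Group G] {D : Set G}

/-- the type `R n`, in the terms of the reflections of norm one -/
theorem exists_iso_isR {n : ℕ} (h : FData D) (hz : Subgroup.center G = ⊥) (hn : 6 ≤ n)
    (hR : IsR n D) :
    ∃ Q : QuadraticForm (ZMod 3) (Fin n → ZMod 3), (QuadraticMap.polarBilin Q).Nondegenerate ∧ ∃ c : ZMod 3, c ≠ 0 ∧ ∃ e : G ≃* ↥(Cfsg.reflectionSubgroup (⇑Q) c) ⧸ Subgroup.center ↥(Cfsg.reflectionSubgroup (⇑Q) c), e '' D = (QuotientGroup.mk : ↥(Cfsg.reflectionSubgroup (⇑Q) c) → _) '' {g : ↥(Cfsg.reflectionSubgroup (⇑Q) c) | (g : ↥(Cfsg.isometryGroup (ZMod 3) (⇑Q))) ∈ Cfsg.reflectionsOfNorm (⇑Q) c} := by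
  obtain ⟨B, f, hS, hB, h1, h2, h3, h4⟩ := hR
  have F : Form B := ⟨hS.eq, hB.1⟩
  exact ⟨QB B, MSpU.polarBilin_nondeg F hB, 1, by decide,
    MSpU.exists_iso_refl h hz hn F f h1 h2 h3 h4⟩

end Cfsg.Agent.H805.Main
end
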